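import Cfsg.Agent.H380.RC.EStmt
import Cfsg.Agent.S0822

/-!
# S3510, family E, box E17: assembly of the unitary row (helper398)
-/

set_option autoImplicit false

namespace Cfsg.Agent.H398.RC

open Cfsg Cfsg.Agent.H106.RC Cfsg.Agent.H380.RC

/-- (MV) case III.2 from the normal form -/
theorem caseGraph (h1 : GFormStmt) (h2 : GraphAlt) (h3 : GraphSym) (h4 : GraphEven) : CaseGraph := by
  intro G Ω _ _ _ _ _ N F _ _ n q U ι _ x f r hfam hcov
  rintro ⟨h42, ⟨i, hi, hri, hj⟩, hIH⟩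
  obtain ⟨T, hT⟩ := h1 U x f r hfam i hi hri hj
  by_cases hall : ∀ v, T v = v → hermForm n F q v v = 0
  · exact h2 U x f r hfam hcov ⟨h42, hIH, i, T, hT, hall⟩
  · push Not at hall
    rcases Nat.even_or_odd q with he | ho
    · exact h4 U x f r hfam hcov ⟨he, h42, hIH, i, T, hT, hall⟩
    · exact h3 U x f r hfam hcov ⟨ho, hIH, i, T, hT, hall⟩

/-- no cover for `PSU n F q` -/
theorem noCov_psu (h0 : LiftStmt) (h1 : CaseOne) (h2 : CaseTwo) (h3 : CaseField) (h4 : CaseGraph)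
    {F : Type} [Field F] [Fintype F] {n q : ℕ} (hF : Fintype.card F = q ^ 2) (hn : 3 ≤ n)
    (h32 : ¬ (n = 3 ∧ q = 2)) (h42 : ¬ (n = 4 ∧ q = 2)) (hIH : IH (Nat.card (PSU n F q))) :
    NoCov (PSU n F q) := by
  intro G _ _ Ω _ _ _ N hE e ι _ x r hx hcov _
  let U : UEnv G Ω N F n q := ⟨hE, e, hF, hn, h32⟩
  obtain ⟨f, hf⟩ := h0 U x r hx
  by_cases hlin : ∀ i, Lin (f i)
  · by_cases hcop : ∀ i, (r i).Coprime q
    · exact h1 U x f r hf hcov ⟨h42, hlin, hcop, hIH⟩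
    · push Not at hcop
      exact h2 U x f r hf hcov ⟨h42, hlin, hcop, hIH⟩
  · push Not at hlin
    obtain ⟨i, hi⟩ := hlin
    by_cases hall : ∀ j, ¬ Lin (f j) → r j = 2
    · refine h4 U x f r hf hcov ⟨h42, ⟨i, hi, hall i hi, ?_⟩, hIH⟩
      intro j hji
      by_contra hj
      exact hji (hx.inj ((hall j hj).trans (hall i hi).symm))
    · push Not at hall
      obtain ⟨j, hj, hr⟩ := hall
      exact h3 U x f r hf hcov ⟨h42, ⟨j, hj, hr⟩, hIH⟩

/-- **E17**: the row for `PSU` -/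
theorem row_psu (hsp : Row (fun S _ => IsPSp S)) (h0 : LiftStmt) (h1 : CaseOne) (h2 : CaseTwo) (h3 : CaseField)
    (h4 : CaseGraph) : Row (fun S _ => IsPSU S) := by
  intro S _ _ hs hc hP hE hIH
  obtain ⟨F, _, _, n, q, hF, hn, h32, ⟨e⟩⟩ := hP
  by_cases h42 : n = 4 ∧ q = 2
  · obtain ⟨rfl, rfl⟩ := h42
    apply hsp S hs hc _ hE hIH
    have : Fact (Nat.Prime 3) := ⟨Nat.prime_three⟩
    obtain ⟨e'⟩ := Cfsg.Agent.S0822.result (F := F) (K := ZMod 3) (by rw [hF]; rfl) (ZMod.card 3)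
    exact ⟨ZMod 3, inferInstance, inferInstance, 2, le_rfl, fun _ => (ZMod.card 3).ge, ⟨e.trans e'⟩⟩
  · have hfin : Finite (PSU n F q) := Finite.of_equiv S e.toEquiv
    have hs' : IsSimpleGroup (PSU n F q) := isSimple_cgr0 e hs
    have hc' : ¬ IsMulCommutative (PSU n F q) := by
      intro h
      apply hc
      constructor; constructor
      intro a b
      apply e.injective
      rw [map_mul, map_mul]
      exact h.is_comm.comm _ _
    have hcard : Nat.card S = Nat.card (PSU n F q) := Nat.card_congr e.toEquiv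
    rw [hcard] at hIH
    exact (rc_of_noCov hs' hc' (noCov_psu h0 h1 h2 h3 h4 hF hn h32 h42 hIH)).congr e.symm

end Cfsg.Agent.H398.RC
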