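import Cfsg.Agent.H398.RC.StrT
import Cfsg.Agent.H438.RC.SymStmt

/-!
# S3510, family E, box E13: `StrTStmt` (helper398)
-/

set_option autoImplicit false

namespace Cfsg.Agent.H398.RC

open Cfsg Cfsg.Agent.LieClassical.HermBasic Cfsg.Agent.H380.RC Cfsg.Agent.LieClassical.HermSiegel

/-- **STR-T** -/
theorem strT_stmt : Cfsg.Agent.H438.RC.StrTStmt := by
  intro F _ _ n q hF hq T g hT hg hne
  obtain ⟨N, hN, hNq, hgN⟩ := hg.ord
  have hCg : ∀ u, Cfsg.Agent.H438.RC.Cg g u → Cg g u := fun u hu => ⟨hu.add, hu.lin, hu.comm⟩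
  rcases strT hF hq hT.TT hT.add hT.smul hT.herm hg.add hg.lin hg.herm hg.comm hN hNq hgN with
    h0 | ⟨A, B, h1, h2, h3, h4, h5, h6, h7, h8, h9⟩ | ⟨W, W', h1, h2, h3, h4, h5, h6⟩ |
    ⟨W, W', h1, h2, h3, h4, h5, h6⟩ | ⟨V₁, V₂, h1, h2, h3, h4, h5, h6, h7, ρ, hρ1, hρ2, hρ3, hρ4, hρ5, hρ6, -, ⟨k, hk⟩, hl⟩
  · obtain ⟨v, hv⟩ := hne
    exact absurd (h0 v) hv
  · exact Or.inl ⟨A, B, h1, h2, h3, h5, h6, h4, h7, h8, fun u hu => h9 u (hCg u hu)⟩
  · exact Or.inr (Or.inl ⟨W, W', h1, h2, h3, h4, h5, fun u hu => h6 u (hCg u hu)⟩)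
  · exact Or.inr (Or.inr (Or.inl ⟨W, W', h1, h2, h3, h4, h5, fun u hu => h6 u (hCg u hu)⟩))
  · refine Or.inr (Or.inr (Or.inr ⟨V₁, V₂, h1, h2, h3, h4, h5, h6, fun u hu => h7 u (hCg u hu), ?_⟩))
    rcases hl with ⟨c, hc⟩ | ⟨l, ⟨s, hs⟩, hns⟩
    · exact Or.inl ⟨c, hc⟩
    · refine Or.inr ⟨s, ρ, fun v hv => ?_, fun u hu v => ?_, ?_, hρ1, hρ2, hρ5, fun v _ w _ => hρ3 v w, k, l,
        fun v hv => ⟨hk v hv, hs v⟩⟩
      · rw [hs]
        generalize l = l'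
        induction l' with
        | zero => rfl
        | succ l' ih => rw [Function.iterate_succ_apply', ih, hρ4 v hv]
      · rw [hs, hs]
        generalize l = l'
        induction l' with
        | zero => rfl
        | succ l' ih => rw [Function.iterate_succ_apply', Function.iterate_succ_apply', ih, hρ6 u (hCg u hu)]
      · rintro ⟨c, hc⟩
        exact hns ⟨c, fun v hv => by rw [← hs, hc v hv]⟩

end Cfsg.Agent.H398.RC
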